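import Cfsg.Agent.Lib.Helper21.O10.Defs
import Cfsg.Agent.Lib.Helper57.OE.Base
import Cfsg.Agent.Lib.Helper55.Asch.DecCore

set_option autoImplicit false
set_option linter.unusedSectionVars false

namespace Cfsg.Agent.Lib.Helper63.O10

open Cfsg Cfsg.Geo Matrix Cfsg.Agent.Lib.Helper13.Asch Cfsg.Agent.Lib.Helper90.Sp
  Cfsg.Agent.Lib.Helper57.OE Cfsg.Agent.Lib.Helper21.O10
open scoped Kronecker MatrixGroups commutatorElement

variable {ι : Type} [Fintype ι] [DecidableEq ι] {F : Type*} [Field F] {Q : (ι → F) → F}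

/-- `Q` is additive on pairwise orthogonal vectors. -/
theorem Q_sum_orth (hQ : IsNondegenerateQuadraticForm Q) {κ : Type*} [DecidableEq κ]
    (v : κ → (ι → F)) (horth : ∀ i j, i ≠ j → QuadraticMap.polar Q (v i) (v j) = 0)
    (s : Finset κ) :
    Q (∑ i ∈ s, v i) = ∑ i ∈ s, Q (v i) ∧ ∀ j ∉ s, QuadraticMap.polar Q (v j) (∑ i ∈ s, v i) = 0 := by
  induction s using Finset.induction_on with
  | empty =>
    refine ⟨by simpa using Q_zero hQ, fun j _ => ?_⟩
    have := hQ.polar_bilinear.smul_right 0 (v j) 0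
    simpa using this
  | insert k s hk ih =>
    refine ⟨?_, fun j hj => ?_⟩
    · rw [Finset.sum_insert hk, Finset.sum_insert hk, Q_add Q, ih.1, ih.2 k hk, add_zero]
    · rw [Finset.mem_insert, not_or] at hj
      rw [Finset.sum_insert hk, hQ.polar_bilinear.add_right, horth j k hj.1, ih.2 j hj.2, add_zero]

theorem planes_normal_form (hQ : IsNondegenerateQuadraticForm Q) {t : ℕ}
    (D : Fin t → Submodule F (ι → F)) (hD : IsOrthogonalMDecomposition Q 2 D) :
    ∃ (x y : Fin t → (ι → F)) (a b c : F), (∀ i, x i ∈ D i) ∧ (∀ i, y i ∈ D i) ∧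
      (∀ v, ∃ α β : Fin t → F, v = ∑ i, (α i • x i + β i • y i)) ∧
      LinearIndependent F (Sum.elim x y) ∧
      ∀ α β : Fin t → F, Q (∑ i, (α i • x i + β i • y i)) =
        ∑ i, (a * α i ^ 2 + b * (α i * β i) + c * β i ^ 2) := by
  classical
  have ht : 2 ≤ t := hD.decomp.decomp.two_le
  let i₀ : Fin t := ⟨0, by omega⟩
  let bs := Module.finBasisOfFinrankEq F (D i₀) (hD.decomp.decomp.finrank_eq i₀)
  have hiso := fun i => hD.isometric i₀ i
  choose ε hε using hiso
  set x : Fin t → (ι → F) := fun i => ((ε i (bs 0) : D i) : ι → F) with hx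
  set y : Fin t → (ι → F) := fun i => ((ε i (bs 1) : D i) : ι → F) with hy
  have hcomb : ∀ i (α β : F), α • x i + β • y i
      = ((ε i (α • bs 0 + β • bs 1) : D i) : ι → F) := by
    intro i α β
    rw [map_add, map_smul, map_smul]
    rfl
  have hmem : ∀ i, ∀ w ∈ D i, ∃ α β : F, w = α • x i + β • y i := by
    intro i w hw
    have h1 := bs.sum_repr ((ε i).symm ⟨w, hw⟩)
    rw [Fin.sum_univ_two] at h1
    refine ⟨bs.repr ((ε i).symm ⟨w, hw⟩) 0, bs.repr ((ε i).symm ⟨w, hw⟩) 1, ?_⟩
    rw [hcomb, h1, LinearEquiv.apply_symm_apply]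
  have hspan : ∀ v, ∃ α β : Fin t → F, v = ∑ i, (α i • x i + β i • y i) := by
    intro v
    have hv : v ∈ iSup D := by rw [hD.decomp.decomp.iSup_eq_top]; trivial
    induction hv using Submodule.iSup_induction' with
    | mem i w hw =>
      obtain ⟨α, β, rfl⟩ := hmem i w hw
      refine ⟨Pi.single i α, Pi.single i β, ?_⟩
      rw [Finset.sum_eq_single i]
      · simp
      · intro j _ hj
        simp [Pi.single_eq_of_ne hj]
      · intro h
        exact absurd (Finset.mem_univ i) h
    | zero => exact ⟨0, 0, by simp⟩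
    | add u w _ _ hu hw =>
      obtain ⟨α, β, rfl⟩ := hu
      obtain ⟨α', β', rfl⟩ := hw
      refine ⟨α + α', β + β', ?_⟩
      rw [← Finset.sum_add_distrib]
      apply Finset.sum_congr rfl
      intro i _
      simp only [Pi.add_apply]
      module
  refine ⟨x, y, Q (bs 0 : ι → F), QuadraticMap.polar Q (bs 0 : ι → F) (bs 1 : ι → F),
    Q (bs 1 : ι → F), fun i => (ε i (bs 0)).2, fun i => (ε i (bs 1)).2, hspan, ?_, ?_⟩
  · apply linearIndependent_of_top_le_span_of_card_eq_finrank
    · intro v _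
      obtain ⟨α, β, rfl⟩ := hspan v
      exact Submodule.sum_mem _ (fun i _ => Submodule.add_mem _
        (Submodule.smul_mem _ _ (Submodule.subset_span ⟨Sum.inl i, rfl⟩))
        (Submodule.smul_mem _ _ (Submodule.subset_span ⟨Sum.inr i, rfl⟩)))
    · rw [Module.finrank_fintype_fun_eq_card,
        ← Cfsg.Agent.Lib.Helper55.Asch.card_of_decomp D hD.decomp.decomp, Fintype.card_sum,
        Fintype.card_fin]
      omega
  · intro α β
    have horth : ∀ i j, i ≠ j →
        QuadraticMap.polar Q (α i • x i + β i • y i) (α j • x j + β j • y j) = 0 := by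
      intro i j hij
      rw [hcomb, hcomb]
      exact hD.decomp.orthogonal i j hij _ (Subtype.coe_prop _) _ (Subtype.coe_prop _)
    rw [(Q_sum_orth hQ (fun i => α i • x i + β i • y i) horth Finset.univ).1]
    apply Finset.sum_congr rfl
    intro i _
    rw [hcomb, hε]
    have e : ((α i • bs 0 + β i • bs 1 : D i₀) : ι → F)
        = α i • (bs 0 : ι → F) + β i • (bs 1 : ι → F) := rfl
    rw [e, Q_add Q, hQ.smul, hQ.smul, hQ.polar_bilinear.smul_left, hQ.polar_bilinear.smul_right]
    ring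

end Cfsg.Agent.Lib.Helper63.O10
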