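import Cfsg.Agent.Lib.Helper21.O10.Defs
import Cfsg.Agent.Lib.Helper57.OE.Base

set_option autoImplicit false
set_option linter.unusedSectionVars false

namespace Cfsg.Agent.Lib.Helper63.O10

open Cfsg Cfsg.Geo Matrix Cfsg.Agent.Lib.Helper13.Asch Cfsg.Agent.Lib.Helper90.Sp
  Cfsg.Agent.Lib.Helper57.OE Cfsg.Agent.Lib.Helper21.O10
open scoped Kronecker MatrixGroups commutatorElement

variable {ι : Type} [Fintype ι] [DecidableEq ι] {F : Type*} [Field F] {Q : (ι → F) → F}

theorem KT_mul_formula {T : Matrix ι ι F} {p q : F} (hTT : T * T = p • 1 + q • T)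
    (s r s' r' : F) :
    (s • (1 : Matrix ι ι F) + r • T) * (s' • (1 : Matrix ι ι F) + r' • T) =
      (s * s' + p * r * r') • (1 : Matrix ι ι F) + (s * r' + r * s' + q * r * r') • T := by
  simp only [add_mul, mul_add, Matrix.smul_mul, Matrix.mul_smul, one_mul, mul_one, hTT, smul_smul,
    smul_add]
  module

/-- the subalgebra `F[T]` for `T ^ 2 = p + q T` -/
def KT (T : Matrix ι ι F) (p q : F) (hTT : T * T = p • 1 + q • T) :
    Subalgebra F (Matrix ι ι F) where
  carrier := {x | ∃ s r : F, x = s • (1 : Matrix ι ι F) + r • T}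
  mul_mem' := by
    rintro _ _ ⟨s, r, rfl⟩ ⟨s', r', rfl⟩
    exact ⟨_, _, KT_mul_formula hTT s r s' r'⟩
  add_mem' := by
    rintro _ _ ⟨s, r, rfl⟩ ⟨s', r', rfl⟩
    exact ⟨s + s', r + r', by module⟩
  algebraMap_mem' := by
    intro r
    exact ⟨r, 0, by rw [Algebra.algebraMap_eq_smul_one, zero_smul, add_zero]⟩

theorem mem_KT {T : Matrix ι ι F} {p q : F} {hTT : T * T = p • 1 + q • T} {x : Matrix ι ι F} :
    x ∈ KT T p q hTT ↔ ∃ s r : F, x = s • (1 : Matrix ι ι F) + r • T := Iff.rfl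

theorem field_of_planes [Nonempty ι] (hQ : IsNondegenerateQuadraticForm Q) {t : ℕ}
    (x y : Fin t → (ι → F)) (a b c : F)
    (hspan : ∀ v, ∃ α β : Fin t → F, v = ∑ i, (α i • x i + β i • y i))
    (hli : LinearIndependent F (Sum.elim x y))
    (hform : ∀ α β : Fin t → F, Q (∑ i, (α i • x i + β i • y i)) =
      ∑ i, (a * α i ^ 2 + b * (α i * β i) + c * β i ^ 2))
    (haniso : ∀ α β : F, a * α ^ 2 + b * (α * β) + c * β ^ 2 = 0 → α = 0 ∧ β = 0) :
    ∃ K : Subalgebra F (Matrix ι ι F), IsFieldSubalgebra 2 K ∧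
      ∀ k ∈ K, ∃ s : F, ∀ v, Q (k *ᵥ v) = s * Q v := by
  classical
  have htop : ⊤ ≤ Submodule.span F (Set.range (Sum.elim x y)) := by
    intro v _
    obtain ⟨α, β, rfl⟩ := hspan v
    exact Submodule.sum_mem _ (fun i _ => Submodule.add_mem _
      (Submodule.smul_mem _ _ (Submodule.subset_span ⟨Sum.inl i, rfl⟩))
      (Submodule.smul_mem _ _ (Submodule.subset_span ⟨Sum.inr i, rfl⟩)))
  set B := Module.Basis.mk hli htop with hB
  set T₀ : (ι → F) →ₗ[F] (ι → F) :=
    B.constr F (Sum.elim (fun i => a • y i) (fun i => (-c) • x i + b • y i)) with hT₀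
  have hx : ∀ i, T₀ (x i) = a • y i := by
    intro i
    have h1 : x i = B (Sum.inl i) := by rw [hB, Module.Basis.mk_apply]; rfl
    rw [h1, hT₀, Module.Basis.constr_basis]; rfl
  have hy : ∀ i, T₀ (y i) = (-c) • x i + b • y i := by
    intro i
    have h1 : y i = B (Sum.inr i) := by rw [hB, Module.Basis.mk_apply]; rfl
    rw [h1, hT₀, Module.Basis.constr_basis, ← h1]; rfl
  set T : Matrix ι ι F := LinearMap.toMatrix' T₀ with hT
  have hTv : ∀ α β : Fin t → F, T *ᵥ (∑ i, (α i • x i + β i • y i))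
      = ∑ i, ((-(c * β i)) • x i + (a * α i + b * β i) • y i) := by
    intro α β
    rw [hT, LinearMap.toMatrix'_mulVec, map_sum]
    apply Finset.sum_congr rfl
    intro i _
    rw [map_add, map_smul, map_smul, hx, hy]
    module
  have hK : ∀ (s r : F) (α β : Fin t → F),
      (s • (1 : Matrix ι ι F) + r • T) *ᵥ (∑ i, (α i • x i + β i • y i))
      = ∑ i, ((s * α i - r * c * β i) • x i + (s * β i + r * a * α i + r * b * β i) • y i) := by
    intro s r α β
    rw [Matrix.add_mulVec, Matrix.smul_mulVec, Matrix.smul_mulVec, Matrix.one_mulVec, hTv,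
      Finset.smul_sum, Finset.smul_sum, ← Finset.sum_add_distrib]
    apply Finset.sum_congr rfl
    intro i _
    module
  have hTT : T * T = (-(a * c)) • (1 : Matrix ι ι F) + b • T := by
    apply Matrix.mulVec_injective
    funext v
    obtain ⟨α, β, rfl⟩ := hspan v
    rw [← Matrix.mulVec_mulVec, hTv, hTv, hK]
    apply Finset.sum_congr rfl
    intro i _
    module
  have hNQ : ∀ (s r : F) (v : ι → F), Q ((s • (1 : Matrix ι ι F) + r • T) *ᵥ v)
      = (s ^ 2 + b * s * r + a * c * r ^ 2) * Q v := by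
    intro s r v
    obtain ⟨α, β, rfl⟩ := hspan v
    rw [hK, hform, hform, Finset.mul_sum]
    apply Finset.sum_congr rfl
    intro i _
    ring
  have ha : a ≠ 0 := by
    intro ha
    have := (haniso 1 0 (by rw [ha]; ring)).1
    exact one_ne_zero this
  have hN0 : ∀ s r : F, s ^ 2 + b * s * r + a * c * r ^ 2 = 0 → s = 0 ∧ r = 0 := by
    intro s r h
    have h1 := haniso s (a * r) (by linear_combination a * h)
    exact ⟨h1.1, (mul_eq_zero.1 h1.2).resolve_left ha⟩
  have hQne : ∃ v, Q v ≠ 0 := by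
    by_contra hcon
    push Not at hcon
    obtain ⟨i⟩ := ‹Nonempty ι›
    have hv : (Pi.single i 1 : ι → F) ≠ 0 := by
      intro h
      have := congrFun h i
      simp at this
    obtain ⟨⟨w, hw⟩, -⟩ := hQ.nondegenerate _ hv
    apply hw
    unfold QuadraticMap.polar
    rw [hcon, hcon, hcon]
    ring
  have hind : ∀ s r : F, s • (1 : Matrix ι ι F) + r • T = 0 → s = 0 ∧ r = 0 := by
    intro s r h
    obtain ⟨v, hv⟩ := hQne
    have h1 := hNQ s r v
    rw [h, Matrix.zero_mulVec, Q_zero hQ] at h1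
    exact hN0 s r ((mul_eq_zero.1 h1.symm).resolve_right hv)
  refine ⟨KT T (-(a * c)) b hTT, ⟨?_, ?_, ?_⟩, ?_⟩
  · rintro _ ⟨s, r, rfl⟩ _ ⟨s', r', rfl⟩
    rw [KT_mul_formula hTT, KT_mul_formula hTT]
    congr 2 <;> ring
  · rintro _ ⟨s, r, rfl⟩ hne
    have hN : s ^ 2 + b * s * r + a * c * r ^ 2 ≠ 0 := by
      intro hN
      obtain ⟨rfl, rfl⟩ := hN0 s r hN
      apply hne
      rw [zero_smul, zero_smul, add_zero]
    refine ⟨_, ⟨(s ^ 2 + b * s * r + a * c * r ^ 2)⁻¹ * (s + b * r),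
      -((s ^ 2 + b * s * r + a * c * r ^ 2)⁻¹ * r), rfl⟩, ?_⟩
    rw [KT_mul_formula hTT]
    have e1 : s * ((s ^ 2 + b * s * r + a * c * r ^ 2)⁻¹ * (s + b * r))
        + -(a * c) * r * -((s ^ 2 + b * s * r + a * c * r ^ 2)⁻¹ * r) = 1 := by
      calc _ = (s ^ 2 + b * s * r + a * c * r ^ 2) * (s ^ 2 + b * s * r + a * c * r ^ 2)⁻¹ := by
            ring
        _ = 1 := mul_inv_cancel₀ hN
    have e2 : s * -((s ^ 2 + b * s * r + a * c * r ^ 2)⁻¹ * r)
        + r * ((s ^ 2 + b * s * r + a * c * r ^ 2)⁻¹ * (s + b * r))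
        + b * r * -((s ^ 2 + b * s * r + a * c * r ^ 2)⁻¹ * r) = 0 := by
      ring
    rw [e1, e2, one_smul, zero_smul, add_zero]
  · have hli2 : LinearIndependent F ![(1 : Matrix ι ι F), T] := by
      rw [LinearIndependent.pair_iff]
      intro s r hsr
      exact hind s r hsr
    have hsp : Subalgebra.toSubmodule (KT T (-(a * c)) b hTT) =
        Submodule.span F (Set.range ![(1 : Matrix ι ι F), T]) := by
      ext z
      rw [Subalgebra.mem_toSubmodule, mem_KT]
      simp only [Matrix.range_cons, Matrix.range_empty, Set.union_empty, Set.singleton_union]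
      rw [Submodule.mem_span_pair]
      constructor
      · rintro ⟨s, r, rfl⟩
        exact ⟨s, r, rfl⟩
      · rintro ⟨s, r, rfl⟩
        exact ⟨s, r, rfl⟩
    have h1 := finrank_span_eq_card hli2
    rw [← hsp] at h1
    simpa using h1
  · rintro _ ⟨s, r, rfl⟩
    exact ⟨_, hNQ s r⟩

end Cfsg.Agent.Lib.Helper63.O10
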