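import Cfsg.Agent.Lib.Helper21.O10.Defs
import Cfsg.Agent.Lib.Helper57.OE.Base

set_option autoImplicit false
set_option linter.unusedSectionVars false

namespace Cfsg.Agent.Lib.Helper63.O10

open Cfsg Cfsg.Geo Matrix Cfsg.Agent.Lib.Helper13.Asch Cfsg.Agent.Lib.Helper90.Sp
  Cfsg.Agent.Lib.Helper57.OE Cfsg.Agent.Lib.Helper21.O10
open scoped Kronecker MatrixGroups commutatorElement

variable {ι : Type} [Fintype ι] [DecidableEq ι] {F : Type*} [Field F] {Q : (ι → F) → F}

theorem aniso_of_not_plus (hQ : IsNondegenerateQuadraticForm Q) (W : Submodule F (ι → F))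
    (hdim : Module.finrank F W = 2) (hW : ¬ IsPlusTypeOn Q W) : ∀ w ∈ W, Q w = 0 → w = 0 := by
  intro w hw hw0
  by_contra hne
  apply hW
  refine ⟨Submodule.span F {w}, ?_, ?_, ?_⟩
  · rw [Submodule.span_singleton_le_iff_mem]
    exact hw
  · intro u hu
    obtain ⟨c, rfl⟩ := Submodule.mem_span_singleton.1 hu
    rw [hQ.smul, hw0, mul_zero]
  · rw [finrank_span_singleton hne, hdim]

end Cfsg.Agent.Lib.Helper63.O10
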