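import Cfsg.Agent.Lib.Helper21.O10.Defs
import Cfsg.Agent.Lib.Helper57.OE.Base
import Cfsg.Agent.Lib.Helper94.QuadWrap

set_option autoImplicit false

namespace Cfsg.Agent.Lib.Helper63.O10

open Cfsg Cfsg.Geo Matrix Cfsg.Agent.Lib.Helper13.Asch Cfsg.Agent.Lib.Helper90.Sp
  Cfsg.Agent.Lib.Helper57.OE Cfsg.Agent.Lib.Helper21.O10
open scoped Kronecker MatrixGroups commutatorElement

variable {ι : Type} [Fintype ι] [DecidableEq ι] {F : Type*} [Field F] {Q : (ι → F) → F}

theorem plus_of_pair (hQ : IsNondegenerateQuadraticForm Q) {H : Subgroup (GL ι F)}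
    (h : RPair Q H) : IsPlusTypeOn Q ⊤ := by
  classical
  obtain ⟨U, U', hcompl, hU, hU', -⟩ := h
  set B := Cfsg.Agent.Lib.Helper94.pB (Cfsg.Agent.Lib.Helper94.quadOf Q hQ) with hB
  have hBnd : B.Nondegenerate := Cfsg.Agent.Lib.Helper94.pB_quadOf_nondegenerate Q hQ
  have hBap : ∀ x y, B x y = QuadraticMap.polar Q x y := fun x y => rfl
  have iso : ∀ X : Submodule F (ι → F), IsTotallySingularQuad Q X → X ≤ B.orthogonal X := by
    intro X hX u hu
    rw [LinearMap.BilinForm.mem_orthogonal_iff]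
    intro v hv
    show B v u = 0
    rw [hBap]
    unfold QuadraticMap.polar
    rw [hX _ (X.add_mem hv hu), hX _ hv, hX _ hu]
    ring
  have hsum := Submodule.finrank_add_eq_of_isCompl hcompl
  have hf1 := LinearMap.BilinForm.finrank_orthogonal hBnd U
  have hf2 := LinearMap.BilinForm.finrank_orthogonal hBnd U'
  have hl1 := Submodule.finrank_mono (iso U hU)
  have hl2 := Submodule.finrank_mono (iso U' hU')
  refine ⟨U, le_top, hU, ?_⟩
  rw [finrank_top]
  omega

end Cfsg.Agent.Lib.Helper63.O10
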